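import Mathlib
import Cfsg.Agent.H65.PF6a
import Cfsg.Agent.H70.PF3
import Cfsg.Agent.H72.PF1

/-! Peterfalvi (6.8.2): case B of Sibley's coherence theorem. -/

set_option autoImplicit false

namespace Cfsg.Agent.H14

open Cfsg Cfsg.Agent.H63 Cfsg.Agent.H67 Cfsg.Agent.H70 Cfsg.Agent.H65 Cfsg.Agent.H65.PF Subgroup
open scoped ComplexConjugate Cfsg.Agent.H68

universe u

variable {G : Type u} [Group G] [Finite G] {L H Z : Subgroup G}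

/-- The characters induced from the nonprincipal linear characters of `H` are irreducible. -/
theorem oddFrobQuo_irr (hN : H ⊴ L) {M : Subgroup G} (hF : OddFrobQuo H L M) {η : G → ℂ}
    (hη : η ∈ seqIndD H L H (⁅H, H⁆ ⊔ M)) : IsIrr L η := by
  obtain ⟨θ, hθ, hk, hnk, rfl⟩ := hη
  have hNL : (⁅H, H⁆ ⊔ M) ⊴ L := (hN.commutator hN).sup hF.normal
  have hNH : ⁅H, H⁆ ⊔ M ≤ H := hF.lt.le
  have hHN : H ≤ N[⁅H, H⁆ ⊔ M] := hN.le.trans hNL.norm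
  obtain ⟨α, hα, rfl⟩ := hθ.exists_cfMod hk hHN
  rw [cfInd_cfMod hNL.norm hN.le hNH]
  refine IsIrr.cfMod hNL (H65.PF.irr_induced_Frobenius_ker hF.frob hα fun e => hnk ?_)
  rw [e, cfMod_cfOne ⟨hNH, hHN⟩, cfker_cfOne]

theorem oddFrobQuo_irr_bot (hN : H ⊴ L) (hF : OddFrobQuo H L ⊥) {η : G → ℂ}
    (hη : η ∈ seqIndD H L H ⁅H, H⁆) : IsIrr L η :=
  oddFrobQuo_irr hN hF (by rwa [sup_bot_eq])

theorem oddFrobQuo_index_lt (hN : H ⊴ L) (hF : OddFrobQuo H L ⊥) (hZH : Z ≤ ⁅H, H⁆) :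
    H.relIndex L < Z.relIndex H := by
  have h1 := hF.relIndex_modEq hN le_rfl hN.norm
  have h2 := hF.lt
  rw [sup_bot_eq] at h1 h2
  have h3 : (⁅H, H⁆ : Subgroup G).relIndex H ≠ 1 := fun e =>
    h2.not_ge (Subgroup.relIndex_eq_one.1 e)
  have h4 := H65.PF.relIndex_pos (⁅H, H⁆ : Subgroup G) H
  have h5 : (⁅H, H⁆ : Subgroup G).relIndex H ≤ Z.relIndex H :=
    Subgroup.relIndex_le_of_le_left hZH (H65.PF.relIndex_pos Z H).ne'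
  have h6 : H.relIndex L ∣ (⁅H, H⁆ : Subgroup G).relIndex H - 1 :=
    (Nat.modEq_iff_dvd' (by omega)).1 h1.symm
  have := Nat.le_of_dvd (by omega) h6
  omega

/-- (6.8.2.1). -/
theorem caseB_const (hN : H ⊴ L) (hF : OddFrobQuo H L ⊥) (hTI : NormedTI H^# ⊤ L)
    (hZ : (Nat.card Z).Prime) (hZH : Z ≤ ⁅H, H⁆) {ν : (G → ℂ) →ₗ[ℂ] (G → ℂ)}
    (hν : CoherentWith L (seqIndD H L H ⁅H, H⁆) {1}ᶜ (cfInd ⊤ L) ν) {η : G → ℂ}
    (hη : η ∈ seqIndD H L H ⁅H, H⁆) :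
    ∀ x ∈ Z, x ≠ 1 → ∀ y ∈ Z, y ≠ 1 → ν η x = ν η y := by
  intro x hx hx1 y hy hy1
  have hZH' : Z ≤ H := hZH.trans (le_sup_left.trans hF.lt.le)
  have ho : orderOf x = Nat.card Z := by
    have h := H67.orderOf_dvd_card_of_mem hx
    rcases (Nat.dvd_prime hZ).1 h with h | h
    · exact absurd (orderOf_eq_one_iff.1 h) hx1
    · exact h
  have hzp : zpowers x = Z :=
    Subgroup.eq_of_le_of_card_ge (zpowers_le.2 hx) (by rw [Nat.card_zpowers, ho])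
  obtain ⟨k, rfl⟩ : y ∈ Submonoid.powers x := mem_powers_iff_mem_zpowers.2 (hzp ▸ hy)
  have hk : k.Coprime (Nat.card Z) := by
    refine ((Nat.Prime.coprime_iff_not_dvd hZ).2 fun hd => hy1 ?_).symm
    exact orderOf_dvd_iff_pow_eq_one.1 (ho ▸ hd)
  obtain ⟨σ, hσ⟩ := make_pi_cfAut G hZ.ne_zero hk
  have h1 := (hσ ⊤ (ν η) (hν.vc η hη)).1 x (ho ▸ dvd_rfl)
  have hne : η ≠ conjFun η := (seqInd_conjC_neq hF.odd hN le_rfl hη).symm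
  have h2 : cfAut (σ : ℂ →+* ℂ) (ν η) = ν (cfAut (σ : ℂ →+* ℂ) η) :=
    cfAut_coherent hν _ (fun α _ h => by rw [cfInd_one, h, mul_zero])
      (fun α _ _ => cfInd_cfAut _ α) hη (oddFrobQuo_irr_bot hN hF hη) (cfAut_seqInd _ hη)
      (conj_seqInd hη) (oddFrobQuo_irr_bot hN hF (conj_seqInd hη))
      (cfAut_seqInd _ (conj_seqInd hη)) hne
  have h3 := hν.agree' _ (seqInd_sub_aut_zchar (σ : ℂ →+* ℂ) hη) (seqInd_sub_aut_one _ hη)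
  have h4 := cfInd_apply_of_normedTI hTI
    (seqIndT_sub_aut_on hN (σ : ℂ →+* ℂ) (seqInd_subT hη)) (x := x) ⟨hZH' hx, hx1⟩
  have h5 : η x = η 1 :=
    cfker_apply (seqInd_le_cfker hN.le (hN.commutator hN).norm hη (hZH hx))
  have h6 : (η - cfAut (σ : ℂ →+* ℂ) η) x = 0 := by
    have := seqInd_sub_aut_one (σ : ℂ →+* ℂ) hη
    simp only [Pi.sub_apply, cfAut_apply] at this ⊢
    rw [h5]; exact this
  rw [← h3, h6, map_sub, ← h2, Pi.sub_apply, cfAut_apply] at h4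
  rw [← h1]
  exact sub_eq_zero.1 h4

/-- The inner product with a nonprincipal linear character of a function constant on `Z^#`. -/
theorem cfdot_of_const {ψ φ : G → ℂ} (hc : ∀ x ∈ Z, x ≠ 1 → ∀ y ∈ Z, y ≠ 1 → ψ x = ψ y)
    (hφ : IsIrr Z φ) (h1 : φ ≠ cfOne Z) (hl : φ 1 = 1) {x : G} (hx : x ∈ Z) (hx1 : x ≠ 1) :
    cfdot Z φ ψ = conj ((ψ 1 - ψ x) / Nat.card Z) := by
  have hZ : (Nat.card Z : ℂ) ≠ 0 := Nat.cast_ne_zero.2 Nat.card_pos.ne'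
  have : cfdot Z φ ψ = cfdot Z φ (ψ x • cfOne Z + ((ψ 1 - ψ x) / Nat.card Z) • cfReg Z) := by
    refine cfdot_congr (fun _ _ => rfl) fun y hy => ?_
    simp only [Pi.add_apply, Pi.smul_apply, smul_eq_mul, cfOne_apply_of_mem hy]
    by_cases e : y = 1
    · rw [e, cfReg_apply_one]; field_simp; ring
    · rw [cfReg_apply_of_ne_one e, hc y hy e x hx hx1]; ring
  rw [this, cfdot_add_right, cfdot_smul_right, cfdot_smul_right, hφ.cfdot_of_ne isIrr_cfOne h1,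
    cfdot_cfReg_right, hl]
  ring

theorem comm_of_le_cent (hZL : L ≤ C[Z]) (h : Z ≤ L) : ∀ a ∈ Z, ∀ b ∈ Z, a * b = b * a :=
  fun a ha b hb => (hZL (h hb)) a ha

theorem normal_of_le_cent (hZL : L ≤ C[Z]) (h : Z ≤ L) : Z ⊴ L :=
  ⟨h, hZL.trans (centralizer_le_normalizer _)⟩

/-- The class function `Ind_Z^L φ - |H : Z| η` vanishes off `H^#`. -/
theorem caseB_alpha_on (hN : H ⊴ L) (hZH : Z ≤ H) {φ η : G → ℂ} (hl : φ 1 = 1)
    (hη : η ∈ seqIndT H L) (h1 : η 1 = H.relIndex L) :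
    cfInd L Z φ - ((Z.relIndex H : ℕ) : ℂ) • η ∈ CFon L H^# := by
  refine mem_CFon_diff_one (Submodule.sub_mem _
    ⟨cfInd_mem_CFun φ, cfInd_off_of_normal hN.norm hZH φ⟩
    (Submodule.smul_mem _ _ (seqIndT_on hN hη))) ?_
  rw [Pi.sub_apply, Pi.smul_apply, cfInd_one, hl, h1, smul_eq_mul, mul_one,
    ← Subgroup.relIndex_mul_relIndex Z H L hZH hN.le, Nat.cast_mul, sub_self]

theorem caseB_num {m w : ℕ} (hw : w < m) {a b : ℝ} (h : (m * a) ^ 2 + (m * b) ^ 2 ≤ m * w + m ^ 2) :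
    a ^ 2 + b ^ 2 < 2 := by
  have h0 : (0 : ℝ) < m := by exact_mod_cast (Nat.zero_le w).trans_lt hw
  have h1 : (w : ℝ) < m := by exact_mod_cast hw
  have h2 : (m : ℝ) ^ 2 * (a ^ 2 + b ^ 2) < m ^ 2 * 2 := by nlinarith
  exact lt_of_mul_lt_mul_left h2 (by positivity)

/-- (6.8.2.2). -/
theorem caseB_pivot {p : ℕ} (hp : p.Prime) (hH : IsSyl p H L) (hN : H ⊴ L)
    (hF : OddFrobQuo H L ⊥) (hTI : NormedTI H^# ⊤ L)
    (hZ : (Nat.card Z).Prime) (hZH : Z ≤ ⁅H, H⁆) (hZL : L ≤ C[Z]) {ν : (G → ℂ) →ₗ[ℂ] (G → ℂ)}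
    (hν : CoherentWith L (seqIndD H L H ⁅H, H⁆) {1}ᶜ (cfInd ⊤ L) ν) {η₁ : G → ℂ}
    (hη₁ : η₁ ∈ seqIndD H L H ⁅H, H⁆) :
    ∃ ψ ∈ zspan (seqIndD H L H ⁅H, H⁆), rdot ⊤ (ν ψ) (ν ψ) = 1 ∧
      (∀ η ∈ seqIndD H L H ⁅H, H⁆, η ≠ η₁ → rdot ⊤ (cfInd ⊤ L (η - η₁)) (ν ψ) = -1) ∧
      ∀ φ, IsIrr Z φ → φ ≠ cfOne Z →
        rdot ⊤ (cfInd ⊤ L (cfInd L Z φ - ((Z.relIndex H : ℕ) : ℂ) • η₁)) (ν ψ) =
          -(Z.relIndex H : ℕ) := by
  classical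
  have hZH' : Z ≤ H := hZH.trans (le_sup_left.trans hF.lt.le)
  have hZL' : Z ≤ L := hZH'.trans hN.le
  have hlin : ∀ φ, IsIrr Z φ → φ 1 = 1 := fun φ hφ =>
    (hφ.isLin_of_comm (comm_of_le_cent hZL hZL')).2
  have hirr : ∀ η ∈ seqIndD H L H ⁅H, H⁆, IsIrr L η := fun η => oddFrobQuo_irr_bot hN hF
  have hdeg : ∀ η ∈ seqIndD H L H ⁅H, H⁆, η 1 = H.relIndex L := fun η =>
    seqInd_derived_degree le_rfl
  have hker : ∀ η ∈ seqIndD H L H ⁅H, H⁆, Z ≤ cfker L η := fun η hη =>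
    hZH.trans (seqInd_le_cfker hN.le (hN.commutator hN).norm hη)
  have hn1 : ∀ η ∈ seqIndD H L H ⁅H, H⁆, rdot ⊤ (ν η) (ν η) = 1 := fun η hη => by
    rw [hν.rdot_eq hη hη, irr_rdot_self (hirr η hη)]
  have ho : ∀ η ∈ seqIndD H L H ⁅H, H⁆, ∀ ξ ∈ seqIndD H L H ⁅H, H⁆, η ≠ ξ →
      rdot ⊤ (ν η) (ν ξ) = 0 := fun η hη ξ hξ h => by
    rw [hν.rdot_eq hη hξ, irr_rdot_ne (hirr η hη) (hirr ξ hξ) h]
  have hag : ∀ η ∈ seqIndD H L H ⁅H, H⁆, cfInd ⊤ L (η - η₁) = ν η - ν η₁ := fun η hη => by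
    rw [← map_sub ν, hν.agree' _ (zspan_sub (mem_zspan_self hη) (mem_zspan_self hη₁))
      (by rw [Pi.sub_apply, hdeg η hη, hdeg η₁ hη₁, sub_self])]
  obtain ⟨x, hx, hx1⟩ : ∃ x ∈ Z, x ≠ 1 := by
    by_contra hc
    push Not at hc
    have : Z = ⊥ := (Subgroup.eq_bot_iff_forall Z).2 hc
    rw [this, Subgroup.card_bot] at hZ
    exact Nat.not_prime_one hZ
  have hc := caseB_const hN hF hTI hZ hZH hν hη₁
  have hC : ∀ x ∈ Z, L ⊓ C1[x] = L := fun x hx => inf_eq_left.2 fun g hg =>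
    mem_centralizer_singleton_iff.2 (hZL hg x hx).symm
  obtain ⟨n, hn⟩ := constant_dirr_mod_TI_Sylow hp hH hF.odd hTI (normal_of_le_cent hZL hZL')
    (le_inf hZH' (le_centralizer_iff.1 (hN.le.trans hZL)))
    (fun x hx _ y hy _ => by rw [hC x hx, hC y hy]) (hν.dirr hη₁ (hirr η₁ hη₁)) hc hx hx1
  obtain ⟨d, hd⟩ := vch_rdot_int ((hirr η₁ hη₁).isVChar_cfInd (L := ⊤) le_top) (hν.vc η₁ hη₁)
  set m : ℕ := Z.relIndex H with hm
  have hcard : (Nat.card H : ℂ) = m * Nat.card Z := by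
    rw [hm, ← Nat.cast_mul, mul_comm, H67.card_mul_relIndex hZH']
  have hZ0 : (Nat.card Z : ℂ) ≠ 0 := Nat.cast_ne_zero.2 Nat.card_pos.ne'
  -- the inner products of `τ α` with the `ν η`
  have e1 : ∀ φ, IsIrr Z φ → φ ≠ cfOne Z →
      rdot ⊤ (cfInd ⊤ L (cfInd L Z φ - (m : ℂ) • η₁)) (ν η₁) = m * ((n - d : ℤ) : ℝ) := by
    intro φ hφ h1
    have : rdot ⊤ (cfInd ⊤ Z φ) (ν η₁) = ((m * n : ℤ) : ℝ) := by
      apply rdot_of_dot
      rw [cfdot_cfInd_left le_top φ (hν.vc η₁ hη₁).cfun,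
        cfdot_of_const hc hφ h1 (hlin φ hφ) hx hx1, hn, hcard, ← mul_assoc,
        mul_div_cancel_right₀ _ hZ0]
      simp [mul_comm]
    rw [map_sub, map_smul, cfInd_cfInd hZL' le_top, rdot_sub_left, rdot_natCast_smul_left, this, hd]
    push_cast; ring
  have hIη : ∀ φ, IsIrr Z φ → φ ≠ cfOne Z → ∀ η ∈ seqIndD H L H ⁅H, H⁆,
      rdot L (cfInd L Z φ) η = 0 := fun φ hφ h1 η hη => by
    apply rdot_eq_zero_of_dot
    rw [cfdot_cfInd_left hZL' φ (hirr η hη).cfun]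
    exact cfdot_symm_zero (cfdot_eq_zero_of_le_cfker (hker η hη) hφ h1)
  have e2 : ∀ φ, IsIrr Z φ → φ ≠ cfOne Z → ∀ η ∈ seqIndD H L H ⁅H, H⁆, η ≠ η₁ →
      rdot ⊤ (cfInd ⊤ L (cfInd L Z φ - (m : ℂ) • η₁)) (ν η) = m * ((n - d + 1 : ℤ) : ℝ) := by
    intro φ hφ h1 η hη hne
    have h2 := cfdot_cfInd_of_normedTI hTI
      (caseB_alpha_on hN hZH' (hlin φ hφ) (seqInd_subT hη₁) (hdeg η₁ hη₁))
      (seqIndT_sub_on hN (seqInd_subT hη) (seqInd_subT hη₁) (by rw [hdeg η hη, hdeg η₁ hη₁]))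
    have h3 := congrArg Complex.re h2
    rw [← rdot_def, ← rdot_def, hag η hη, rdot_sub_right, e1 φ hφ h1, rdot_sub_left,
      rdot_sub_right, rdot_natCast_smul_left, rdot_sub_right, hIη φ hφ h1 η hη,
      hIη φ hφ h1 η₁ hη₁, irr_rdot_self (hirr η₁ hη₁),
      irr_rdot_ne (hirr η₁ hη₁) (hirr η hη) hne.symm] at h3
    push_cast at h3 ⊢
    linarith
  have e3 : ∀ φ, IsIrr Z φ → φ ≠ cfOne Z →
      rdot ⊤ (cfInd ⊤ L (cfInd L Z φ - (m : ℂ) • η₁)) (cfInd ⊤ L (cfInd L Z φ - (m : ℂ) • η₁)) =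
        m * (H.relIndex L : ℕ) + m ^ 2 := by
    intro φ hφ h1
    have ha := caseB_alpha_on hN hZH' (hlin φ hφ) (seqInd_subT hη₁) (hdeg η₁ hη₁)
    have h3 := congrArg Complex.re (cfdot_cfInd_of_normedTI hTI ha ha)
    have h4 : rdot L (cfInd L Z φ) (cfInd L Z φ) = ((m * H.relIndex L : ℕ) : ℝ) := by
      apply rdot_of_dot
      rw [cfdot_cfInd_left hZL' φ (cfInd_mem_CFun φ), cfInd_of_invariant hZL' hφ.off
        fun y hy => cfConj_of_mem_centralizer hφ.off (hZL hy), cfdot_natCast_smul_right,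
        hφ.cfdot_self, mul_one, hm, Subgroup.relIndex_mul_relIndex Z H L hZH' hN.le]
      simp
    rw [← rdot_def, ← rdot_def] at h3
    rw [h3, rdot_sub_self, rdot_natCast_smul_right, rdot_natCast_smul_right,
      rdot_natCast_smul_left, hIη φ hφ h1 η₁ hη₁, irr_rdot_self (hirr η₁ hη₁), h4]
    push_cast; ring
  obtain ⟨φ₀, hφ₀, h₀⟩ := exists_irr_apply_ne hx hx1
  have h₀' : φ₀ ≠ cfOne Z := fun e => h₀ (by rw [e, cfOne_apply_of_mem hx, cfOne_apply_one])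
  have hbes : ∀ η ∈ seqIndD H L H ⁅H, H⁆, ∀ ξ ∈ seqIndD H L H ⁅H, H⁆, η ≠ ξ → ∀ a b : ℝ,
      rdot ⊤ (cfInd ⊤ L (cfInd L Z φ₀ - (m : ℂ) • η₁)) (ν η) = m * a →
      rdot ⊤ (cfInd ⊤ L (cfInd L Z φ₀ - (m : ℂ) • η₁)) (ν ξ) = m * b → a ^ 2 + b ^ 2 < 2 := by
    intro η hη ξ hξ hne a b ha hb
    have := rdot_bessel_on (L := ⊤) {η, ξ} ν
      (fun i hi j hj hij => ho i (by
        rcases Finset.mem_insert.1 hi with rfl | hi
        · exact hη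
        · rw [Finset.mem_singleton.1 hi]; exact hξ) j (by
        rcases Finset.mem_insert.1 hj with rfl | hj
        · exact hη
        · rw [Finset.mem_singleton.1 hj]; exact hξ) hij)
      (fun i hi => hn1 i (by
        rcases Finset.mem_insert.1 hi with rfl | hi
        · exact hη
        · rw [Finset.mem_singleton.1 hi]; exact hξ))
      (cfInd ⊤ L (cfInd L Z φ₀ - (m : ℂ) • η₁))
    rw [Finset.sum_pair hne, ha, hb, e3 φ₀ hφ₀ h₀'] at this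
    exact caseB_num (oddFrobQuo_index_lt hN hF hZH) this
  have hη₂ := conj_seqInd hη₁
  have hne₂ : conjFun η₁ ≠ η₁ := seqInd_conjC_neq hF.odd hN le_rfl hη₁
  have h5 := hbes η₁ hη₁ _ hη₂ hne₂.symm _ _ (e1 φ₀ hφ₀ h₀') (e2 φ₀ hφ₀ h₀' _ hη₂ hne₂)
  have h6 : (n - d) ^ 2 + (n - d + 1) ^ 2 < 2 := by exact_mod_cast h5
  have h7 : n - d = -1 ∨ n - d = 0 := by
    have h8 : -2 < n - d := by nlinarith
    have h9 : n - d < 1 := by nlinarith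
    omega
  rcases h7 with h7 | h7
  · refine ⟨η₁, mem_zspan_self hη₁, hn1 η₁ hη₁, fun η hη hne => ?_, fun φ hφ h1 => ?_⟩
    · rw [hag η hη, rdot_sub_left, ho η hη η₁ hη₁ hne, hn1 η₁ hη₁, zero_sub]
    · rw [e1 φ hφ h1, h7]; push_cast; ring
  · refine ⟨-conjFun η₁, zspan_neg (mem_zspan_self hη₂), ?_, fun η hη hne => ?_,
      fun φ hφ h1 => ?_⟩
    · rw [map_neg, rdot_neg_left, rdot_neg_right, neg_neg, hn1 _ hη₂]
    · have : η = conjFun η₁ := by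
        by_contra hne'
        have := hbes η hη _ hη₂ hne' _ _ (e2 φ₀ hφ₀ h₀' η hη hne) (e2 φ₀ hφ₀ h₀' _ hη₂ hne₂)
        rw [h7] at this
        norm_num at this
      rw [hag η hη, this, map_neg, rdot_neg_right, rdot_sub_left, hn1 _ hη₂,
        ho η₁ hη₁ _ hη₂ hne₂.symm, sub_zero]
    · rw [map_neg, rdot_neg_right, e2 φ hφ h1 _ hη₂ hne₂, h7]; push_cast; ring

section

variable {Γ : Type*} [Group Γ] [Finite Γ] {S S₁ : Set (G → ℂ)} {τ ν : (G → ℂ) →ₗ[ℂ] (Γ → ℂ)}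
  {R : (G → ℂ) → Finset (Γ → ℂ)}

/-- The estimate of (6.8.2.3). -/
theorem caseB_bound (hS : Subcoherent L S τ R) (hs : S₁ ⊆ S) (hc : ∀ χ ∈ S₁, conjFun χ ∈ S₁)
    (hν : CoherentWith L S₁ {1}ᶜ τ ν) {η₁ : G → ℂ} (hη₁ : η₁ ∈ S₁) (hn : rdot L η₁ η₁ = 1)
    {ψ : G → ℂ} (hψ : ψ ∈ zspan S₁) (h1 : rdot ⊤ (ν ψ) (ν ψ) = 1) {χ : G → ℂ} (hχ : χ ∈ S)
    (hχn : χ ∉ S₁) {a : ℕ} (ha : χ 1 = a * η₁ 1) :
    -rdot ⊤ (τ (χ - (a : ℂ) • η₁)) (ν ψ) ≤ a := by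
  have hm : χ - (a : ℂ) • η₁ ∈ zspan S :=
    zspan_sub (mem_zspan_self hχ) (zspan_natCast_smul (mem_zspan_self (hs hη₁)) a)
  have hm1 : (χ - (a : ℂ) • η₁) 1 = 0 := by rw [Pi.sub_apply, Pi.smul_apply, ha, smul_eq_mul, sub_self]
  obtain ⟨X, hX, Y, hY, e, hYR⟩ := hS.split hχ (hS.vc _ hm hm1)
  have hne : η₁ ≠ χ := fun e => hχn (e ▸ hη₁)
  have hne' : η₁ ≠ conjFun χ := fun e => hS.not_mem_conj hc hχn (e ▸ hη₁)
  have hXY : rdot ⊤ X Y = 0 :=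
    rdot_eq_zero_of_dot (dot_eq_zero_of_zspan (fun α hα => dot_symm_zero (hYR α hα)) hX)
  have h2 := (hS.subcoherent_norm hχ (n := a ^ 2) (hS.vcR hχ hX) (by
    rw [← e, hS.rdot_isom hm hm1 (hS.sub_conj_mem hχ) (hS.sub_conj_one hχ), rdot_sub_left,
      rdot_sub_right, rdot_natCast_smul_left, rdot_sub_right, hS.rdot_orth (hs hη₁) hχ hne,
      hS.rdot_orth (hs hη₁) (hS.conj_mem χ hχ) hne',
      rdot_eq_zero_of_dot (hS.dot_conj_eq_zero hχ)]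
    ring) (by
    rw [← e, hS.rdot_isom hm hm1 hm hm1, rdot_sub_self, rdot_natCast_smul_right,
      rdot_natCast_smul_right, rdot_natCast_smul_left, hS.rdot_orth hχ (hs hη₁) hne.symm, hn]
    ring) hXY hYR).1
  have h3 : rdot ⊤ (X - Y) (X - Y) = rdot L χ χ + a ^ 2 := by
    rw [← e, hS.rdot_isom hm hm1 hm hm1, rdot_sub_self, rdot_natCast_smul_right,
      rdot_natCast_smul_right, rdot_natCast_smul_left, hS.rdot_orth hχ (hs hη₁) hne.symm, hn]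
    ring
  rw [rdot_sub_self, hXY] at h3
  have h4 : rdot ⊤ X (ν ψ) = 0 :=
    rdot_eq_zero_of_dot (dot_symm_zero (hS.coherent_ortho_supp hs hc hν hχ hχn hψ hX))
  have h5 := rdot_bessel_on (L := ⊤) {()} (fun _ => ν ψ) (fun _ _ _ _ h => (h rfl).elim)
    (fun _ _ => h1) Y
  rw [Finset.sum_singleton] at h5
  rw [e, rdot_sub_left, h4, zero_sub, neg_neg]
  exact le_of_sq_le_sq (by linarith) (Nat.cast_nonneg a)

end

/-- Peterfalvi (6.8.2). -/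
theorem Sibley_caseB {p : ℕ} (hp : p.Prime) (hH : IsSyl p H L) (hN : H ⊴ L)
    (hF : OddFrobQuo H L ⊥) (hTI : NormedTI H^# ⊤ L)
    (hZ : (Nat.card Z).Prime) (hZH : Z ≤ ⁅H, H⁆) (hZL : L ≤ C[Z])
    {R : (G → ℂ) → Finset (G → ℂ)} (hS : Subcoherent L (seqIndD H L H ⊥) (cfInd ⊤ L) R) :
    Coherent L (seqIndD H L Z ⊥ ∪ seqIndD H L H ⁅H, H⁆) {1}ᶜ (cfInd ⊤ L) := by
  classical
  have hZH' : Z ≤ H := hZH.trans (le_sup_left.trans hF.lt.le)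
  have hZL' : Z ≤ L := hZH'.trans hN.le
  have hZN : Z ⊴ H := normal_of_le_cent (hN.le.trans hZL) hZH'
  have hlin : ∀ φ, IsIrr Z φ → φ 1 = 1 := fun φ hφ =>
    (hφ.isLin_of_comm (comm_of_le_cent hZL hZL')).2
  have hdeg : ∀ η ∈ seqIndD H L H ⁅H, H⁆, η 1 = H.relIndex L := fun η =>
    seqInd_derived_degree le_rfl
  have hYS : seqIndD H L H ⁅H, H⁆ ⊆ seqIndD H L H ⊥ := seqInd_sub1 le_rfl
  have hXS : seqIndD H L Z ⊥ ⊆ seqIndD H L H ⊥ := seqInd_sub1 hZH'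
  have hYc : ∀ χ ∈ seqIndD H L H ⁅H, H⁆, conjFun χ ∈ seqIndD H L H ⁅H, H⁆ := fun _ => conj_seqInd
  obtain ⟨ν, hν⟩ := (hS.mono hYS hYc).uniform_degree_coherence
    fun φ hφ ψ hψ => by rw [hdeg φ hφ, hdeg ψ hψ]
  obtain ⟨η₁, hη₁⟩ := seqIndD_nonempty (L := L) (H := H) (M := ⁅H, H⁆)
    ((hN.commutator hN).of_le (le_sup_left.trans hF.lt.le) hN.le) le_rfl
    fun h => hF.lt.not_ge (h.trans le_sup_left)
  have hn : rdot L η₁ η₁ = 1 := irr_rdot_self (oddFrobQuo_irr_bot hN hF hη₁)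
  obtain ⟨ψ, hψ, h1, hY, hX⟩ := caseB_pivot hp hH hN hF hTI hZ hZH hZL hν hη₁
  refine (hS.mono (Set.union_subset hXS hYS) fun χ hχ => hχ.imp conj_seqInd conj_seqInd
    ).pivot_coherence (Or.inr hη₁) (hν.vc_zspan hψ) ?_ (by rw [h1, hn])
  rintro χ (hχ | hχ) hne
  swap
  · refine ⟨1, by rw [hdeg χ hχ, hdeg η₁ hη₁]; simp, ?_⟩
    rw [Int.cast_one, one_smul, hY χ hχ hne, hn]; simp
  obtain ⟨θ, hθ, -, hk, rfl⟩ := hχ
  obtain ⟨φ, hφ, hφ1, hθφ⟩ := H72.exists_nonprincipal_constt hZH' hθ.isChar hk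
  -- the constituents of `Ind_Z^H φ`
  have hinv : H ≤ H70.inertia Z φ := (hN.le.trans hZL).trans (H70.centralizer_le_inertia hφ.off)
  choose! a ha0 ha using fun ξ (h : IsIrr H ξ) => h.exists_pos
  have hdot : ∀ ξ ∈ H72.irrOver H Z φ, cfdot Z ξ φ = a ξ := fun ξ hξ => by
    obtain ⟨h2, h3⟩ := H72.mem_irrOver.1 hξ
    have := congrFun (h2.cfRes_eq_smul_of_invariant hZN hφ hinv h3) 1
    rw [cfRes_apply_one, Pi.smul_apply, hlin φ hφ, smul_eq_mul, mul_one] at this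
    rw [← this, ha ξ h2]
  have hsum : cfInd H Z φ = ∑ ξ ∈ H72.irrOver H Z φ, (a ξ : ℂ) • ξ := by
    rw [H72.cfInd_eq_sum_irrOver hZH' hφ.isVChar]
    exact Finset.sum_congr rfl fun ξ hξ => by rw [hdot ξ hξ]
  have hm : Z.relIndex H = ∑ ξ ∈ H72.irrOver H Z φ, a ξ * a ξ := by
    have := congrFun hsum 1
    rw [cfInd_one, hlin φ hφ, mul_one, Finset.sum_apply] at this
    apply Nat.cast_injective (R := ℂ)
    rw [this, Nat.cast_sum]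
    exact Finset.sum_congr rfl fun ξ hξ => by
      rw [Pi.smul_apply, ha ξ (H72.mem_irrOver.1 hξ).1, smul_eq_mul, Nat.cast_mul]
  have hα : cfInd L Z φ - ((Z.relIndex H : ℕ) : ℂ) • η₁ =
      ∑ ξ ∈ H72.irrOver H Z φ, (a ξ : ℂ) • (cfInd L H ξ - (a ξ : ℂ) • η₁) := by
    rw [← cfInd_cfInd hZH' hN.le, hsum, map_sum, hm, Nat.cast_sum, Finset.sum_smul,
      ← Finset.sum_sub_distrib]
    exact Finset.sum_congr rfl fun ξ _ => by rw [map_smul, smul_sub, smul_smul, Nat.cast_mul]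
  have hd : ∀ ξ, IsIrr H ξ → cfInd L H ξ 1 = a ξ * η₁ 1 := fun ξ hξ => by
    rw [cfInd_one, ha ξ hξ, hdeg η₁ hη₁, mul_comm]
  have hb : ∀ ξ ∈ H72.irrOver H Z φ,
      0 ≤ a ξ * (a ξ + rdot ⊤ (cfInd ⊤ L (cfInd L H ξ - (a ξ : ℂ) • η₁)) (ν ψ)) := fun ξ hξ => by
    obtain ⟨h2, h3⟩ := H72.mem_irrOver.1 hξ
    have hmem : cfInd L H ξ ∈ seqIndD H L Z ⊥ :=
      mem_seqIndD_of h2 bot_le fun h => h3 (cfdot_eq_zero_of_le_cfker h hφ hφ1)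
    have := caseB_bound hS hYS hYc hν hη₁ hn hψ h1 (hXS hmem)
      (fun h => seqIndD_disjoint hN.le (hN.commutator hN).norm h hZH hZH' hmem) (hd ξ h2)
    exact mul_nonneg (Nat.cast_nonneg _) (by linarith)
  have h0 : ∑ ξ ∈ H72.irrOver H Z φ,
      a ξ * (a ξ + rdot ⊤ (cfInd ⊤ L (cfInd L H ξ - (a ξ : ℂ) • η₁)) (ν ψ)) = 0 := by
    have := hX φ hφ hφ1
    rw [hα, map_sum, rdot_sum_left, hm, Nat.cast_sum, ← Finset.sum_neg_distrib,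
      ← sub_eq_zero, ← Finset.sum_sub_distrib] at this
    rw [← this]
    exact Finset.sum_congr rfl fun ξ _ => by
      rw [map_smul, rdot_natCast_smul_left]; push_cast; ring
  have h2 := (Finset.sum_eq_zero_iff_of_nonneg hb).1 h0 θ (H72.mem_irrOver.2 ⟨hθ, hθφ⟩)
  have h3 : (a θ : ℝ) ≠ 0 := Nat.cast_ne_zero.2 (ha0 θ hθ).ne'
  refine ⟨a θ, by rw [hd θ hθ, Int.cast_natCast], ?_⟩
  rw [Int.cast_natCast, Int.cast_natCast, hn]
  have := (mul_eq_zero.1 h2).resolve_left h3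
  linarith

end Cfsg.Agent.H14
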