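import Mathlib
import Cfsg.Agent.H14.PF68B

/-! Peterfalvi (6.8.1): case A of Sibley's coherence theorem. -/

set_option autoImplicit false

namespace Cfsg.Agent.H14

open Cfsg Cfsg.Agent.H63 Cfsg.Agent.H67 Cfsg.Agent.H70 Cfsg.Agent.H65 Cfsg.Agent.H65.PF Subgroup
open scoped ComplexConjugate Cfsg.Agent.H68

universe u

variable {G : Type u} [Group G] [Finite G] {L H Z : Subgroup G}

/-- The choice of the pivot image. -/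
theorem pivot_choice {Y : Set (G → ℂ)} {ν : (G → ℂ) →ₗ[ℂ] (G → ℂ)}
    (hn1 : ∀ η ∈ Y, rdot ⊤ (ν η) (ν η) = 1)
    (ho : ∀ η ∈ Y, ∀ ξ ∈ Y, η ≠ ξ → rdot ⊤ (ν η) (ν ξ) = 0) {η₁ η₂ : G → ℂ} (hη₁ : η₁ ∈ Y)
    (hη₂ : η₂ ∈ Y) (hne₂ : η₂ ≠ η₁) {β : G → ℂ} {m : ℝ} {x : ℤ} (e1 : rdot ⊤ β (ν η₁) = m * x)
    (e2 : ∀ η ∈ Y, η ≠ η₁ → rdot ⊤ β (ν η) = m * (x + 1)) (e3 : rdot ⊤ β β < 2 * m ^ 2) :
    ∃ ψ ∈ zspan Y, rdot ⊤ (ν ψ) (ν ψ) = 1 ∧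
      (∀ η ∈ Y, η ≠ η₁ → rdot ⊤ (ν η - ν η₁) (ν ψ) = -1) ∧
      ∀ (γ : G → ℂ) (k : ℝ), rdot ⊤ γ (ν η₁) = k * x → rdot ⊤ γ (ν η₂) = k * (x + 1) →
        rdot ⊤ γ (ν ψ) = -k := by
  classical
  have hbes : ∀ η ∈ Y, ∀ ξ ∈ Y, η ≠ ξ → ∀ a b : ℝ,
      rdot ⊤ β (ν η) = m * a → rdot ⊤ β (ν ξ) = m * b → a ^ 2 + b ^ 2 < 2 := by
    intro η hη ξ hξ hne a b ha hb
    have hm : ∀ i ∈ ({η, ξ} : Finset (G → ℂ)), i ∈ Y := fun i hi => by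
      rcases Finset.mem_insert.1 hi with rfl | hi
      · exact hη
      · rw [Finset.mem_singleton.1 hi]; exact hξ
    have := rdot_bessel_on (L := ⊤) {η, ξ} ν (fun i hi j hj hij => ho i (hm i hi) j (hm j hj) hij)
      (fun i hi => hn1 i (hm i hi)) β
    rw [Finset.sum_pair hne, ha, hb] at this
    have h2 : m ^ 2 * (a ^ 2 + b ^ 2) < m ^ 2 * 2 := by nlinarith
    exact lt_of_mul_lt_mul_left h2 (by positivity)
  have h5 := hbes η₁ hη₁ _ hη₂ hne₂.symm _ _ e1 (e2 _ hη₂ hne₂)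
  have h6 : x ^ 2 + (x + 1) ^ 2 < 2 := by exact_mod_cast h5
  have h7 : x = -1 ∨ x = 0 := by
    have h8 : -2 < x := by nlinarith
    have h9 : x < 1 := by nlinarith
    omega
  rcases h7 with rfl | rfl
  · refine ⟨η₁, mem_zspan_self hη₁, hn1 η₁ hη₁, fun η hη hne => ?_, fun γ k h1 _ => ?_⟩
    · rw [rdot_sub_left, ho η hη η₁ hη₁ hne, hn1 η₁ hη₁, zero_sub]
    · rw [h1]; push_cast; ring
  · refine ⟨-η₂, zspan_neg (mem_zspan_self hη₂), ?_, fun η hη hne => ?_, fun γ k _ h2 => ?_⟩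
    · rw [map_neg, rdot_neg_left, rdot_neg_right, neg_neg, hn1 _ hη₂]
    · have : η = η₂ := by
        by_contra hne'
        have := hbes η hη _ hη₂ hne' _ _ (e2 η hη hne) (e2 _ hη₂ hne₂)
        norm_num at this
      rw [this, map_neg, rdot_neg_right, rdot_sub_left, hn1 _ hη₂,
        ho η₁ hη₁ _ hη₂ hne₂.symm, sub_zero]
    · rw [map_neg, rdot_neg_right, h2]; push_cast; ring

/-- Peterfalvi (6.8.1), after the reduction to `X ⊆ Irr L`. -/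
theorem Sibley_caseA {p : ℕ} (hp : p.Prime) (hH : IsSyl p H L) (hN : H ⊴ L)
    (hs : Group.IsSolvable H) (hF : OddFrobQuo H L ⊥) (hTI : NormedTI H^# ⊤ L)
    (hZ : Z ⊴ L) (hZ1 : Z ≠ ⊥) (hZc : Z ≤ Z[H]) (hZH : Z ≤ ⁅H, H⁆)
    (hC : ∀ x ∈ Z, x ≠ 1 → ∀ y ∈ Z, y ≠ 1 → Nat.card ↥(L ⊓ C1[x]) = Nat.card ↥(L ⊓ C1[y]))
    (hX : ∀ χ ∈ seqIndD H L Z ⊥, IsIrr L χ)
    {R : (G → ℂ) → Finset (G → ℂ)} (hS : Subcoherent L (seqIndD H L H ⊥) (cfInd ⊤ L) R) :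
    Coherent L (seqIndD H L Z ⊥ ∪ seqIndD H L H ⁅H, H⁆) {1}ᶜ (cfInd ⊤ L) := by
  classical
  have hZH' : Z ≤ H := hZc.trans inf_le_left
  have hirr : ∀ η ∈ seqIndD H L H ⁅H, H⁆, IsIrr L η := fun η => oddFrobQuo_irr_bot hN hF
  have hdeg : ∀ η ∈ seqIndD H L H ⁅H, H⁆, η 1 = H.relIndex L := fun η =>
    seqInd_derived_degree le_rfl
  have hYS : seqIndD H L H ⁅H, H⁆ ⊆ seqIndD H L H ⊥ := seqInd_sub1 le_rfl
  have hXS : seqIndD H L Z ⊥ ⊆ seqIndD H L H ⊥ := seqInd_sub1 hZH'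
  have hYc : ∀ χ ∈ seqIndD H L H ⁅H, H⁆, conjFun χ ∈ seqIndD H L H ⁅H, H⁆ := fun _ => conj_seqInd
  have hXc : ∀ χ ∈ seqIndD H L Z ⊥, conjFun χ ∈ seqIndD H L Z ⊥ := fun _ => conj_seqInd
  have hXY : ∀ η ∈ seqIndD H L H ⁅H, H⁆, η ∉ seqIndD H L Z ⊥ := fun η hη =>
    seqIndD_disjoint hN.le (hN.commutator hN).norm hη hZH hZH'
  obtain ⟨ν, hν⟩ := (hS.mono hYS hYc).uniform_degree_coherence
    fun φ hφ ψ hψ => by rw [hdeg φ hφ, hdeg ψ hψ]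
  obtain ⟨hXeq, μ, hμ⟩ := seqIndD_irr_coherence hN hs hS hF hZ hZ1 hZc hX
  obtain ⟨η₁, hη₁⟩ := seqIndD_nonempty (L := L) (H := H) (M := ⁅H, H⁆)
    ((hN.commutator hN).of_le (le_sup_left.trans hF.lt.le) hN.le) le_rfl
    fun h => hF.lt.not_ge (h.trans le_sup_left)
  obtain ⟨χ₀, hχ₀⟩ := seqIndD_nonempty (K := H) (L := L) (H := Z) (M := ⊥)
    ⟨bot_le, by rw [Subgroup.normalizer_eq_top]; exact le_top⟩ hZH' fun h => hZ1 (le_bot_iff.1 h)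
  have hn : rdot L η₁ η₁ = 1 := irr_rdot_self (hirr η₁ hη₁)
  have hn1 : ∀ η ∈ seqIndD H L H ⁅H, H⁆, rdot ⊤ (ν η) (ν η) = 1 := fun η hη => by
    rw [hν.rdot_eq hη hη, irr_rdot_self (hirr η hη)]
  have ho : ∀ η ∈ seqIndD H L H ⁅H, H⁆, ∀ ξ ∈ seqIndD H L H ⁅H, H⁆, η ≠ ξ →
      rdot ⊤ (ν η) (ν ξ) = 0 := fun η hη ξ hξ h => by
    rw [hν.rdot_eq hη hξ, irr_rdot_ne (hirr η hη) (hirr ξ hξ) h]
  have hsub1 : ∀ η ∈ seqIndD H L H ⁅H, H⁆, (η - η₁) 1 = 0 := fun η hη => by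
    rw [Pi.sub_apply, hdeg η hη, hdeg η₁ hη₁, sub_self]
  have hag : ∀ η ∈ seqIndD H L H ⁅H, H⁆, cfInd ⊤ L (η - η₁) = ν η - ν η₁ := fun η hη => by
    rw [← map_sub ν, hν.agree' _ (zspan_sub (mem_zspan_self hη) (mem_zspan_self hη₁)) (hsub1 η hη)]
  choose! a ha0 ha using fun χ (h : χ ∈ seqIndD H L Z ⊥) => seqInd_degree h
  have hw : (H.relIndex L : ℂ) ≠ 0 := relIndex_ne_zero' H L
  have hmem : ∀ χ ∈ seqIndD H L Z ⊥, χ - (a χ : ℂ) • η₁ ∈ zspan (seqIndD H L H ⊥) := fun χ hχ =>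
    zspan_sub (mem_zspan_self (hXS hχ)) (zspan_natCast_smul (mem_zspan_self (hYS hη₁)) _)
  have hone : ∀ χ ∈ seqIndD H L Z ⊥, (χ - (a χ : ℂ) • η₁) 1 = 0 := fun χ hχ => by
    rw [Pi.sub_apply, Pi.smul_apply, ha χ hχ, hdeg η₁ hη₁, smul_eq_mul, sub_self]
  have hχη : ∀ χ ∈ seqIndD H L Z ⊥, ∀ η ∈ seqIndD H L H ⁅H, H⁆, rdot L χ η = 0 :=
    fun χ hχ η hη => hS.rdot_orth (hXS hχ) (hYS hη) fun e => hXY η hη (e ▸ hχ)
  have ha' : (a χ₀ : ℝ) ≠ 0 := Nat.cast_ne_zero.2 (ha0 χ₀ hχ₀).ne'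
  set x₀ : ℝ := rdot ⊤ (cfInd ⊤ L (χ₀ - (a χ₀ : ℂ) • η₁)) (ν η₁) / a χ₀ with hx₀
  have e1 : ∀ χ ∈ seqIndD H L Z ⊥,
      rdot ⊤ (cfInd ⊤ L (χ - (a χ : ℂ) • η₁)) (ν η₁) = a χ * x₀ := fun χ hχ => by
    have hz : (a χ₀ : ℂ) • χ - (a χ : ℂ) • χ₀ ∈ zspan (seqIndD H L Z ⊥) :=
      zspan_sub (zspan_natCast_smul (mem_zspan_self hχ) _) (zspan_natCast_smul (mem_zspan_self hχ₀) _)
    have h1 := hμ.agree' _ hz (by
      simp only [Pi.sub_apply, Pi.smul_apply, ha χ hχ, ha χ₀ hχ₀, smul_eq_mul]; ring)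
    have h2 := rdot_eq_zero_of_dot
      (hS.coherent_ortho hXS hXc hYS hYc hμ hν hXY hz (mem_zspan_self hη₁))
    have h3 : (a χ₀ : ℂ) • χ - (a χ : ℂ) • χ₀ =
        (a χ₀ : ℂ) • (χ - (a χ : ℂ) • η₁) - (a χ : ℂ) • (χ₀ - (a χ₀ : ℂ) • η₁) := by
      module
    rw [h1, h3, map_sub, map_smul, map_smul, rdot_sub_left, rdot_natCast_smul_left,
      rdot_natCast_smul_left] at h2
    rw [hx₀]
    field_simp
    linarith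
  have e2 : ∀ χ ∈ seqIndD H L Z ⊥, ∀ η ∈ seqIndD H L H ⁅H, H⁆, η ≠ η₁ →
      rdot ⊤ (cfInd ⊤ L (χ - (a χ : ℂ) • η₁)) (ν η) = a χ * (x₀ + 1) := fun χ hχ η hη hne => by
    have h3 := hS.rdot_isom (hmem χ hχ) (hone χ hχ)
      (zspan_sub (mem_zspan_self (hYS hη)) (mem_zspan_self (hYS hη₁))) (hsub1 η hη)
    rw [hag η hη, rdot_sub_right, e1 χ hχ, rdot_sub_left, rdot_sub_right, rdot_natCast_smul_left,
      rdot_sub_right, hχη χ hχ η hη, hχη χ hχ η₁ hη₁, hn,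
      irr_rdot_ne (hirr η₁ hη₁) (hirr η hη) hne.symm] at h3
    linarith
  -- `x₀` is an integer by (6.7)
  have hψv : IsVChar L (cfRes L (ν η₁)) := (hν.vc η₁ hη₁).cfRes le_top
  obtain ⟨e, he⟩ := vch_rdot_int (hirr η₁ hη₁).isVChar hψv
  have e4 : ∀ χ ∈ seqIndD H L Z ⊥, cfdot L (cfRes L (ν η₁)) χ = ((a χ * (x₀ + e) : ℝ) : ℂ) :=
    fun χ hχ => by
    have h1 := e1 χ hχ
    rw [rdot_def, cfdot_cfInd_left_res le_top _ (hν.vc η₁ hη₁).cfun, ← rdot_def, rdot_sub_left,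
      rdot_natCast_smul_left, he] at h1
    rw [vch_dot_eq_rdot hψv (hX χ hχ).isVChar, rdot_comm]
    congr 1
    linarith
  obtain ⟨T, hT⟩ := exists_finset_seqIndD H L Z ⊥
  have hTm : ∀ χ, χ ∈ T ↔ χ ∈ seqIndD H L Z ⊥ := fun χ => by rw [← hT, Finset.mem_coe]
  have hsum := sum_seqIndD hN hZ ⟨bot_le, by rw [Subgroup.normalizer_eq_top]; exact le_top⟩ hZH'
    bot_le T hT
  set c : ℂ := ((x₀ + e : ℝ) : ℂ) / H.relIndex L with hc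
  have hker : Z ≤ cfker L (cfRes L (ν η₁) - c • ∑ ξ ∈ T, (ξ 1 / cfnorm L ξ) • ξ) := by
    refine le_cfker_of_forall_constituent (Submodule.sub_mem _ hψv.cfun (Submodule.smul_mem _ _
      (Submodule.sum_mem _ fun ξ hξ => Submodule.smul_mem _ _ (seqInd_cfun ((hTm ξ).1 hξ)))))
      hZ.le fun χ hχ h => ?_
    by_contra hk
    have hχX : χ ∈ seqIndD H L Z ⊥ := by rw [hXeq]; exact ⟨hχ, hk⟩
    apply h
    rw [cfdot_sub_left, cfdot_smul_left, dot_sum_smul_orth T (fun ξ => ξ)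
      (fun ξ => ξ 1 / cfnorm L ξ) (fun i hi j hj hij =>
        seqInd_ortho hN ((hTm i).1 hi) ((hTm j).1 hj) hij) ((hTm χ).2 hχX), e4 χ hχX,
      hχ.cfnorm, hχ.cfdot_self, ha χ hχX, hc]
    push_cast
    field_simp
    ring
  have hval : ∀ z ∈ Z, z ≠ 1 → ν η₁ 1 - ν η₁ z = ((x₀ + e : ℝ) : ℂ) * Nat.card H := fun z hz hz1 => by
    have h1 := cfker_apply (hker hz)
    rw [hsum] at h1
    simp only [Pi.sub_apply, Pi.smul_apply, smul_eq_mul, cfRes_apply_of_mem _ (hZ.le hz),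
      cfRes_apply_one, cfOne_apply_one, cfOne_apply_of_mem hz,
      cfOne_apply_of_not_mem (L := ⊥) (fun h => hz1 (Subgroup.mem_bot.1 h)),
      Subgroup.relIndex_bot_left] at h1
    rw [← H67.card_mul_relIndex hN.le, Nat.cast_mul, hc] at h1
    field_simp at h1
    apply mul_left_cancel₀ hw
    linear_combination -h1
  obtain ⟨z, hz, hz1⟩ : ∃ x ∈ Z, x ≠ 1 := by
    by_contra hc
    push Not at hc
    exact hZ1 ((Subgroup.eq_bot_iff_forall Z).2 hc)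
  obtain ⟨n, hn'⟩ := constant_dirr_mod_TI_Sylow hp hH hF.odd hTI hZ hZc hC
    (hν.dirr hη₁ (hirr η₁ hη₁)) (fun x hx hx1 y hy hy1 => by
      linear_combination hval y hy hy1 - hval x hx hx1) hz hz1
  have hx : x₀ = ((n - e : ℤ) : ℝ) := by
    rw [hval z hz hz1] at hn'
    have h1 := mul_right_cancel₀ (Nat.cast_ne_zero.2 Nat.card_pos.ne') hn'
    have h2 : x₀ + e = n := by exact_mod_cast h1
    push_cast; linarith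
  have ha2 : 2 ≤ a χ₀ := by
    by_contra hlt
    have h1 : a χ₀ = 1 := by have := ha0 χ₀ hχ₀; omega
    have h2 := ha χ₀ hχ₀
    obtain ⟨θ, hθ, -, hk, rfl⟩ := hχ₀
    rw [h1, cfInd_one, Nat.cast_one, mul_comm] at h2
    exact hk (hZH.trans (hθ.isLin (mul_right_cancel₀ hw h2)).commutator_le_cfker)
  have e3 : rdot ⊤ (cfInd ⊤ L (χ₀ - (a χ₀ : ℂ) • η₁)) (cfInd ⊤ L (χ₀ - (a χ₀ : ℂ) • η₁)) <
      2 * (a χ₀ : ℝ) ^ 2 := by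
    rw [hS.rdot_isom (hmem χ₀ hχ₀) (hone χ₀ hχ₀) (hmem χ₀ hχ₀) (hone χ₀ hχ₀), rdot_sub_self,
      rdot_natCast_smul_right, rdot_natCast_smul_right, rdot_natCast_smul_left,
      hχη χ₀ hχ₀ η₁ hη₁, hn, irr_rdot_self (hX χ₀ hχ₀)]
    have : (2 : ℝ) ≤ a χ₀ := by exact_mod_cast ha2
    nlinarith
  have hη₂ := conj_seqInd hη₁
  have hne₂ : conjFun η₁ ≠ η₁ := seqInd_conjC_neq hF.odd hN le_rfl hη₁
  rw [hx] at e1 e2
  obtain ⟨ψ, hψ, h1, hY, hγ⟩ := pivot_choice hn1 ho hη₁ hη₂ hne₂ (e1 χ₀ hχ₀) (e2 χ₀ hχ₀) e3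
  refine (hS.mono (Set.union_subset hXS hYS) fun χ hχ => hχ.imp conj_seqInd conj_seqInd
    ).pivot_coherence (Or.inr hη₁) (hν.vc_zspan hψ) ?_ (by rw [h1, hn])
  rintro χ (hχ | hχ) hne
  · refine ⟨a χ, by rw [ha χ hχ, hdeg η₁ hη₁, Int.cast_natCast], ?_⟩
    rw [Int.cast_natCast, Int.cast_natCast, hn, hγ _ _ (e1 χ hχ) (e2 χ hχ _ hη₂ hne₂), mul_one]
  · refine ⟨1, by rw [hdeg χ hχ, hdeg η₁ hη₁]; simp, ?_⟩
    rw [Int.cast_one, one_smul, hag χ hχ, hY χ hχ hne, hn]; simp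

end Cfsg.Agent.H14
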