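import Mathlib
import Cfsg.Agent.Lead.PcDefs
import Cfsg.Agent.H89.OddHall

/-! Project PL, piece Sol1. -/

set_option autoImplicit false

namespace Cfsg.Agent.H14.PlSol1

open Cfsg.Agent.Lead.Pc

universe u

theorem sol1 : Sol1Stmt.{u} := fun _ _ _ S _ h =>
  Cfsg.Agent.H89.isSolvable_of_not_two_dvd (by
    rw [← Subgroup.index_eq_card]; exact Odd.not_two_dvd_nat h)

end Cfsg.Agent.H14.PlSol1
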