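import Mathlib
import Cfsg.Agent.H35.RfQ

/-! Project RF, piece E45. -/

set_option autoImplicit false

namespace Cfsg.Agent.H14.RfE45

open Cfsg Subgroup Cfsg.Agent.H18.Rf Cfsg.Agent.H35.RF
open scoped Pointwise

universe u

variable {G : Type u} [Group G]

theorem card_orb (M : Subgroup G) (w : G) :
    Nat.card M = {x | ∃ m ∈ M, m * w * m⁻¹ = x}.ncard * Nat.card ↥(M ⊓ C1 w) := by
  letI : MulAction M G := MulAction.compHom G ((MulAut.conj : G →* MulAut G).comp M.subtype)
  have h : ∀ (m : M) (x : G), m • x = m * x * (m : G)⁻¹ := fun _ _ => rfl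
  rw [← Nat.card_congr (MulAction.orbitProdStabilizerEquivGroup M w), Nat.card_prod,
    ← Nat.card_congr (subgroupOfEquivOfLe (inf_le_left : M ⊓ C1 w ≤ M)).toEquiv,
    Nat.card_coe_set_eq]
  congr 2
  · ext x
    simp only [MulAction.mem_orbit_iff, h, Set.mem_ofPred_eq, Subtype.exists, exists_prop]
  · congr 1
    ext m
    simp only [MulAction.mem_stabilizer_iff, h, mem_subgroupOf, mem_inf, m.2, true_and,
      mem_centralizer_singleton_iff, mul_inv_eq_iff_eq_mul]

theorem conj_UU {z w w' m : G} (hz : m * z * m⁻¹ = z) (hw : m * w * m⁻¹ ∈ UU z w') {x : G}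
    (hx : x ∈ UU z w) : m * x * m⁻¹ ∈ UU z w' := by
  induction hx using closure_induction with
  | mem x hx =>
    rcases hx with rfl | rfl
    · rw [hz]; exact subset_closure (by simp)
    · exact hw
  | one => simp
  | mul x y _ _ h1 h2 => simpa [mul_assoc] using mul_mem h1 h2
  | inv x _ h => simpa [mul_assoc] using inv_mem h

/-- The set of the hypothesis `Ge`. -/
def SS (V : Subgroup G) (z : G) (R : Subgroup G) (w : G) : Set G :=
  {v | v ∈ V ∧ ∀ r ∈ R, r * w = w * r → v * r * v⁻¹ * r⁻¹ ∈ UU z w}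

variable [Finite G] {V W R Q : Subgroup G} {z : G}

theorem SS_le (a : Va V z W R) {w w' m : G} (hm : m ∈ MM V z) (e : m * w * m⁻¹ = w') :
    (SS V z R w).ncard ≤ (SS V z R w').ncard := by
  have hz : m * z * m⁻¹ = z := by
    rw [mem_centralizer_singleton_iff.1 hm.2, mul_inv_cancel_right]
  refine Set.ncard_le_ncard_of_injOn (fun v => m * v * m⁻¹) (fun v hv => ⟨?_, fun r hr h => ?_⟩)
    fun x _ y _ h => by simpa using h
  · exact (mem_normalizer_iff.1 hm.1 v).1 hv.1
  · have h1 := hv.2 (m⁻¹ * r * m) ((mem_normalizer_iff''.1 (a.nR hm) r).1 hr) (by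
      rw [← e] at h
      calc m⁻¹ * r * m * w = m⁻¹ * (r * (m * w * m⁻¹)) * m := by group
        _ = _ := by rw [h]; group)
    have h2 := conj_UU (w' := w') hz (by rw [e]; exact subset_closure (by simp)) h1
    simpa [mul_assoc] using h2

omit [Finite G] in
theorem V_comm (a : Va V z W R) {x y : G} (hx : x ∈ V) (hy : y ∈ V) : x * y = y * x := by
  rw [← a.cen] at hy
  exact mem_centralizer_iff.1 hy x hx

theorem SS_eq (a : Va V z W R) (q : QL V z W R Q) {w : G} (hw : w ∈ W) :
    ((V ⊓ Ew V z Q w : Subgroup G) : Set G) = SS V z R w := by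
  have hQR : Q ≤ R := q.sup ▸ le_sup_left
  have hwV := a.WV hw
  ext v
  constructor
  · rintro ⟨hv, -, -, h⟩
    refine ⟨hv, fun r hr e => ?_⟩
    have h1 : r ∈ ((Q ⊔ V : Subgroup G) : Set G) := q.sup.symm ▸ hr
    rw [coe_mul_of_left_le_normalizer_right Q V fun x hx => (a.RM (hQR hx)).1] at h1
    obtain ⟨x, hx, y, hy, rfl⟩ := h1
    have h2 := h x ⟨hx, mem_centralizer_singleton_iff.2 (by
      have e1 := V_comm a hy hwV
      simp only at e
      rw [mul_assoc, e1, ← mul_assoc, ← mul_assoc] at e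
      exact mul_right_cancel e)⟩
    have e2 := V_comm a hy (inv_mem hv)
    have : v * (x * y) * v⁻¹ * (x * y)⁻¹ = v * x * v⁻¹ * x⁻¹ := by
      calc _ = v * x * (y * v⁻¹) * y⁻¹ * x⁻¹ := by group
        _ = _ := by rw [e2]; group
    simpa only [this] using h2
  · rintro ⟨hv, h⟩
    refine ⟨hv, ⟨a.RM (a.VR hv), mem_centralizer_singleton_iff.2 (V_comm a hv hwV)⟩,
      mem_normalizer_fintype fun x hx => ?_, fun x hx => h x (hQR hx.1)
        (mem_centralizer_singleton_iff.1 hx.2)⟩
    refine conj_UU ?_ ?_ hx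
    · rw [V_comm a hv (a.WV a.zW), mul_inv_cancel_right]
    · rw [V_comm a hv hwV, mul_inv_cancel_right]; exact subset_closure (by simp)

theorem card_cent (a : Va V z W R) (g : Ga V z W R) (b : Gb V z W R) {w : G} (hw : w ∈ W)
    (hz : w ∉ zpowers z) : Nat.card ↥(MM V z ⊓ C1 w) = 2 ^ 20 * 21 := by
  have o : orderOf z = 2 := orderOf_eq_prime (by rw [pow_two]; exact a.el z (a.WV a.zW)) a.z1
  have h := card_orb (MM V z) w
  have e : {x | ∃ m ∈ MM V z, m * w * m⁻¹ = x} = (W : Set G) \ (zpowers z : Set G) := by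
    ext x
    refine ⟨?_, fun hx => b.trW w hw hz x hx.1 hx.2⟩
    rintro ⟨m, hm, rfl⟩
    refine ⟨(mem_normalizer_iff.1 (a.nW hm) w).1 hw, fun h1 => hz ?_⟩
    obtain ⟨k, hk⟩ := mem_zpowers_iff.1 h1
    have h2 : Commute m z := mem_centralizer_singleton_iff.1 hm.2
    refine mem_zpowers_iff.2 ⟨k, ?_⟩
    calc z ^ k = m⁻¹ * (m * z ^ k) := by group
      _ = _ := by rw [(h2.zpow_right k).eq, hk]; group
  rw [e, Set.ncard_sdiff (by exact zpowers_le.2 a.zW), ← Nat.card_coe_set_eq, ← Nat.card_coe_set_eq,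
    g.cM] at h
  have h1 : Nat.card ((W : Set G)) = 2 ^ 5 := g.cW
  have h2 : Nat.card ((zpowers z : Subgroup G) : Set G) = 2 := (Nat.card_zpowers z).trans o
  rw [h1, h2] at h
  omega

/-- **E45** -/
theorem e45 : E45Stmt.{u} := by
  intro G _ _ V z W R Q a g b e q w hw hz
  have z2 : z * z = 1 := a.el z (a.WV a.zW)
  constructor
  · have hwz : w * z ∉ zpowers z := fun h =>
      hz ((Subgroup.mul_mem_cancel_right _ (mem_zpowers z)).1 h)
    obtain ⟨m, hm, em⟩ := b.trW w hw hz _ (mul_mem hw a.zW) hwz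
    have cz : ∀ x ∈ MM V z, x * z * x⁻¹ = z := fun x hx => by
      rw [mem_centralizer_singleton_iff.1 hx.2, mul_inv_cancel_right]
    let H : Subgroup G :=
      { carrier := {x | x ∈ MM V z ∧ (x * w * x⁻¹ = w ∨ x * w * x⁻¹ = w * z)}
        one_mem' := ⟨one_mem _, .inl (by simp)⟩
        mul_mem' := by
          rintro x y ⟨hx, ex⟩ ⟨hy, ey⟩
          refine ⟨mul_mem hx hy, ?_⟩
          have e0 : x * y * w * (x * y)⁻¹ = x * (y * w * y⁻¹) * x⁻¹ := by group
          have e1 : x * (w * z) * x⁻¹ = x * w * x⁻¹ * z := by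
            conv_rhs => rw [← cz x hx]
            group
          rw [e0]
          rcases ey with ey | ey <;> rw [ey]
          · exact ex
          · rw [e1]
            rcases ex with ex | ex <;> rw [ex]
            · exact .inr rfl
            · exact .inl (by rw [mul_assoc, z2, mul_one])
        inv_mem' := by
          rintro x ⟨hx, ex⟩
          refine ⟨inv_mem hx, ex.imp (fun ex => ?_) fun ex => ?_⟩
          · conv_lhs => rw [← ex]
            group
          · have e1 : w = x * w * x⁻¹ * (x * z * x⁻¹) := by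
              rw [ex, cz x hx, mul_assoc, z2, mul_one]
            conv_lhs => rw [e1]
            group }
    have hH : Nat.card H = 2 ^ 21 * 21 := by
      have h := card_orb H w
      have e1 : {x | ∃ m ∈ H, m * w * m⁻¹ = x} = {w, w * z} := by
        ext x
        constructor
        · rintro ⟨y, hy, rfl⟩
          exact hy.2
        · rintro (rfl | rfl)
          · exact ⟨1, one_mem _, by simp⟩
          · exact ⟨m, ⟨hm, .inr em⟩, em⟩
      have e2 : H ⊓ C1 w = MM V z ⊓ C1 w := le_antisymm (inf_le_inf_right _ fun x hx => hx.1)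
        fun x hx => ⟨⟨hx.1, .inl (by
          rw [mem_centralizer_singleton_iff.1 hx.2, mul_inv_cancel_right])⟩, hx.2⟩
      rw [e1, e2, card_cent a g b hw hz, Set.ncard_pair (by simpa using a.z1)] at h
      rw [h]; norm_num
    obtain ⟨T, hT⟩ := Sylow.exists_subgroup_card_pow_prime (G := H) 2 (n := 21)
      (hH ▸ dvd_mul_right _ _)
    refine ⟨T.map H.subtype, ?_, by rw [card_map_of_injective H.subtype_injective, hT]⟩
    rintro _ ⟨x, -, rfl⟩
    refine ⟨x.2.1, mem_normalizer_fintype fun y hy => conj_UU (cz _ x.2.1) ?_ hy⟩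
    have h1 : w ∈ UU z w := subset_closure (by simp)
    have h2 : z ∈ UU z w := subset_closure (by simp)
    rcases x.2.2 with ex | ex
    · exact ex.symm ▸ h1
    · exact ex.symm ▸ mul_mem h1 h2
  · obtain ⟨w0, h0, n0, e⟩ := e
    obtain ⟨m, hm, em⟩ := b.trW w0 h0 n0 w hw hz
    obtain ⟨m', hm', em'⟩ := b.trW w hw hz w0 h0 n0
    change Nat.card ((V ⊓ Ew V z Q w : Subgroup G) : Set G) = _
    rw [Nat.card_coe_set_eq, SS_eq a q hw, ← e]
    exact le_antisymm (SS_le a hm' em') (SS_le a hm em)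

end Cfsg.Agent.H14.RfE45
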